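import Mathlib
import Cfsg.Agent.Lib.Helper58.UPair.Defs

/-!
# UPAIR package [IDXARITH]

If `R * |GL_m(q²)|` divides `(q + 1) * |GU_{2m}(q)|` and the prime `r` divides `R`, then `r ∣ q`
or `r ∣ q ^ j + 1` for some odd `j < 2m`.
-/

set_option autoImplicit false

namespace Cfsg.Agent.Lib.Helper86.UPair

universe u

/-- `∏_{l < m} (q^(2l+2) - 1)` divides `∏_{i < m} ((q²)^m - (q²)^i)`. -/
theorem idx_A_dvd (q m : ℕ) :
    (∏ l ∈ Finset.range m, (q ^ (2 * l + 2) - 1)) ∣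
      ∏ i : Fin m, ((q ^ 2) ^ m - (q ^ 2) ^ (i : ℕ)) := by
  rw [Fin.prod_univ_eq_prod_range (fun i => (q ^ 2) ^ m - (q ^ 2) ^ i) m]
  rw [← Finset.prod_range_reflect (fun l => q ^ (2 * l + 2) - 1) m]
  apply Finset.prod_dvd_prod_of_dvd
  intro i hi
  have hi' : i < m := Finset.mem_range.mp hi
  refine ⟨(q ^ 2) ^ i, ?_⟩
  rw [Nat.sub_mul, one_mul]
  congr 1
  rw [← pow_mul, ← pow_mul, ← pow_add]
  congr 1
  omega

/-- The unitary product for `n = 2m` splits into the `+`-part and the `-`-part. -/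
theorem idx_GU_split (q m : ℕ) :
    (∏ i ∈ Finset.range (2 * m), (if Even i then q ^ (i + 1) + 1 else q ^ (i + 1) - 1)) =
      (∏ l ∈ Finset.range m, (q ^ (2 * l + 1) + 1)) *
        ∏ l ∈ Finset.range m, (q ^ (2 * l + 2) - 1) := by
  induction m with
  | zero => simp
  | succ m ih =>
    have h1 : 2 * (m + 1) = 2 * m + 1 + 1 := by ring
    rw [h1, Finset.prod_range_succ, Finset.prod_range_succ, ih, Finset.prod_range_succ,
      Finset.prod_range_succ]
    have he : Even (2 * m) := even_two_mul m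
    have ho : ¬ Even (2 * m + 1) := by
      rw [Nat.not_even_iff_odd]; exact odd_two_mul_add_one m
    rw [if_pos he, if_neg ho]
    have h2 : 2 * m + 1 + 1 = 2 * m + 2 := by ring
    rw [h2]
    generalize (∏ l ∈ Finset.range m, (q ^ (2 * l + 1) + 1)) = X
    generalize (∏ l ∈ Finset.range m, (q ^ (2 * l + 2) - 1)) = Y
    generalize (q ^ (2 * m + 2) - 1) = W
    ring

theorem pkgIdxArith : Cfsg.Agent.Lib.Helper58.UPair.PkgIdxArith := by
  intro q m n R r hq hm hn hr hrR hdvd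
  subst hn
  rw [idx_GU_split] at hdvd
  obtain ⟨c, hc⟩ := idx_A_dvd q m
  rw [hc] at hdvd
  have hApos : 0 < ∏ l ∈ Finset.range m, (q ^ (2 * l + 2) - 1) := by
    apply Finset.prod_pos
    intro l _
    have : 2 ≤ q ^ (2 * l + 2) := by
      calc 2 ≤ q := hq
        _ = q ^ 1 := (pow_one q).symm
        _ ≤ q ^ (2 * l + 2) := Nat.pow_le_pow_right (by omega) (by omega)
    omega
  have h1 : (R * c) * (∏ l ∈ Finset.range m, (q ^ (2 * l + 2) - 1)) ∣
      ((q + 1) * q ^ (2 * m * (2 * m - 1) / 2) * ∏ l ∈ Finset.range m, (q ^ (2 * l + 1) + 1)) *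
        (∏ l ∈ Finset.range m, (q ^ (2 * l + 2) - 1)) := by
    have e1 : (R * c) * (∏ l ∈ Finset.range m, (q ^ (2 * l + 2) - 1)) =
        R * ((∏ l ∈ Finset.range m, (q ^ (2 * l + 2) - 1)) * c) := by ring
    have e2 : ((q + 1) * q ^ (2 * m * (2 * m - 1) / 2) *
        ∏ l ∈ Finset.range m, (q ^ (2 * l + 1) + 1)) *
        (∏ l ∈ Finset.range m, (q ^ (2 * l + 2) - 1)) =
        (q + 1) * (q ^ (2 * m * (2 * m - 1) / 2) *
          ((∏ l ∈ Finset.range m, (q ^ (2 * l + 1) + 1)) *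
            ∏ l ∈ Finset.range m, (q ^ (2 * l + 2) - 1))) := by ring
    rw [e1, e2]
    exact hdvd
  have h2 : R * c ∣ (q + 1) * q ^ (2 * m * (2 * m - 1) / 2) *
      ∏ l ∈ Finset.range m, (q ^ (2 * l + 1) + 1) :=
    Nat.dvd_of_mul_dvd_mul_right hApos h1
  have h3 : r ∣ (q + 1) * q ^ (2 * m * (2 * m - 1) / 2) *
      ∏ l ∈ Finset.range m, (q ^ (2 * l + 1) + 1) :=
    hrR.trans ((Dvd.intro c rfl).trans h2)
  rcases (Nat.Prime.dvd_mul hr).mp h3 with h4 | h4
  · rcases (Nat.Prime.dvd_mul hr).mp h4 with h5 | h5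
    · right
      exact ⟨1, odd_one, by omega, by simpa using h5⟩
    · left
      exact hr.dvd_of_dvd_pow h5
  · right
    obtain ⟨l, hl, hdl⟩ := (Prime.dvd_finset_prod_iff hr.prime _).mp h4
    have hl' : l < m := Finset.mem_range.mp hl
    exact ⟨2 * l + 1, odd_two_mul_add_one l, by omega, hdl⟩

end Cfsg.Agent.Lib.Helper86.UPair
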