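import Mathlib
import Cfsg.Agent.Lib.Helper58.UPair.Defs

/-!
# UPAIR package [SEMIARITH]

`r` an odd prime, `j` odd, `r ∣ q ^ j + 1`, `r ∤ q + 1`: the order of `q` modulo `r` is `2 * j0`
with `j0` odd, `3 ≤ j0 ≤ j`.
-/

set_option autoImplicit false

namespace Cfsg.Agent.Lib.Helper86.UPair

universe u

theorem pkgSemiArith : Cfsg.Agent.Lib.Helper58.UPair.PkgSemiArith := by
  intro q r j hr hr2 hj hdvd hnd
  haveI : Fact r.Prime := ⟨hr⟩
  have hjpos : 0 < j := hj.pos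
  have hxj : ((q : ℕ) : ZMod r) ^ j = -1 := by
    have h0 : ((q ^ j + 1 : ℕ) : ZMod r) = 0 := (ZMod.natCast_eq_zero_iff _ _).mpr hdvd
    push_cast at h0
    exact eq_neg_of_add_eq_zero_left h0
  have hneg1 : (-1 : ZMod r) ≠ 1 := by
    intro h
    have h2 : ((2 : ℕ) : ZMod r) = 0 := by
      push_cast
      linear_combination (-1 : ZMod r) * h
    have h3 : r ∣ 2 := (ZMod.natCast_eq_zero_iff _ _).mp h2
    have h4 : r ≤ 2 := Nat.le_of_dvd (by norm_num) h3
    have h5 := hr.two_le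
    omega
  have hx2j : ((q : ℕ) : ZMod r) ^ (2 * j) = 1 := by
    rw [mul_comm, pow_mul, hxj]; norm_num
  have hd : orderOf ((q : ℕ) : ZMod r) ∣ 2 * j := orderOf_dvd_of_pow_eq_one hx2j
  have hdj : ¬ orderOf ((q : ℕ) : ZMod r) ∣ j := by
    intro h
    have := orderOf_dvd_iff_pow_eq_one.mp h
    rw [hxj] at this
    exact hneg1 this
  have hdpos : 0 < orderOf ((q : ℕ) : ZMod r) := by
    rw [orderOf_pos_iff, isOfFinOrder_iff_pow_eq_one]
    exact ⟨2 * j, by omega, hx2j⟩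
  have heven : 2 ∣ orderOf ((q : ℕ) : ZMod r) := by
    by_contra h2
    have hcop : Nat.Coprime (orderOf ((q : ℕ) : ZMod r)) 2 := by
      rw [Nat.coprime_comm]
      exact (Nat.Prime.coprime_iff_not_dvd Nat.prime_two).mpr h2
    exact hdj (hcop.dvd_of_dvd_mul_left hd)
  obtain ⟨j0, hj0⟩ := heven
  have hj0dvd : j0 ∣ j := by
    rw [hj0] at hd
    exact (Nat.mul_dvd_mul_iff_left (by norm_num : 0 < 2)).mp hd
  have hj0odd : Odd j0 := Odd.of_dvd_nat hj hj0dvd
  have hj0le : j0 ≤ j := Nat.le_of_dvd hjpos hj0dvd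
  have hj0ne1 : j0 ≠ 1 := by
    intro h1
    rw [h1] at hj0
    have hsq : ((q : ℕ) : ZMod r) ^ 2 = 1 := by
      have := pow_orderOf_eq_one ((q : ℕ) : ZMod r)
      rwa [hj0] at this
    have hfac : (((q : ℕ) : ZMod r) - 1) * (((q : ℕ) : ZMod r) + 1) = 0 := by
      linear_combination hsq
    rcases mul_eq_zero.mp hfac with h | h
    · have hone : ((q : ℕ) : ZMod r) = 1 := sub_eq_zero.mp h
      have : orderOf ((q : ℕ) : ZMod r) = 1 := by rw [hone]; exact orderOf_one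
      omega
    · apply hnd
      apply (ZMod.natCast_eq_zero_iff _ _).mp
      push_cast
      exact h
  refine ⟨j0, hj0odd, ?_, hj0le, hj0⟩
  obtain ⟨t, ht⟩ := hj0odd
  omega

end Cfsg.Agent.Lib.Helper86.UPair
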